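/-
A standard subgroup with an involution in its centralizer (S1347), modulo Feit-Thompson.
-/
import Cfsg.Agent.Lib.StdFT.Tri

set_option autoImplicit false

namespace Cfsg.Agent.Lib.StdFT.Std

open Subgroup Cfsg Cfsg.Agent.Lib.Components.Basic Cfsg.Agent.Lib.StdComp.Pump
  Cfsg.Agent.Lib.Core.Basic Cfsg.Agent.Lib.StdFT.Tri
open scoped commutatorElement

universe u

variable {G : Type u} [Group G] [Finite G]

theorem pLayer_eq_layer (ft : FT G) (hO : oddCore G = ⊥) : pLayer 2 G = layer G := by
  apply le_antisymm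
  · apply Cfsg.Agent.S1305.pLayer_le_layer
    have hO' : pPrimeCore 2 G = ⊥ := hO
    rw [hO']
    exact commutator_bot_right _
  · rw [layer]
    apply sSup_le
    intro K hK
    apply le_sSup
    exact Cfsg.Agent.S1305.isPComponent_two hK.1 hK.2 (two_dvd_card_of_quasisimple ft hK.2)

theorem exists_involution {Z : Subgroup G} (h : 2 ∣ Nat.card Z) : ∃ s ∈ Z, orderOf s = 2 := by
  haveI : Fact (Nat.Prime 2) := ⟨Nat.prime_two⟩
  obtain ⟨x, hx⟩ := exists_prime_orderOf_dvd_card' (G := Z) 2 h
  exact ⟨x, x.2, by rw [← hx]; simp⟩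

variable {A : Subgroup G}

/-- Centralizers of involutions of `C(A)` normalize `A`. -/
theorem mem_normalizer_of_comm (hA : IsStandardSubgroup A) {s : G}
    (hs : s ∈ centralizer (A : Set G)) (hs2 : orderOf s = 2) {g : G} (hg : g * s = s * g) :
    g ∈ normalizer (A : Set G) := by
  by_contra hgn
  rw [hA.2.2.2] at hgn
  have hodd := hA.2.1.2 g hgn
  have hmem : s ∈ centralizer (A : Set G) ⊓ (centralizer (A : Set G)).map (MulAut.conj g).toMonoidHom := by
    refine ⟨hs, s, hs, ?_⟩
    simp only [MulEquiv.coe_toMonoidHom, MulAut.conj_apply]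
    rw [hg, mul_inv_cancel_right]
  have h1 : orderOf (⟨s, hmem⟩ : ↥(centralizer (A : Set G) ⊓
      (centralizer (A : Set G)).map (MulAut.conj g).toMonoidHom)) ∣ Nat.card _ := orderOf_dvd_natCard _
  have h2 : orderOf (⟨s, hmem⟩ : ↥(centralizer (A : Set G) ⊓
      (centralizer (A : Set G)).map (MulAut.conj g).toMonoidHom)) = 2 := by
    rw [Subgroup.orderOf_mk]; exact hs2
  rw [h2] at h1
  rw [Nat.odd_iff] at hodd
  omega

/-- A subgroup commuting with a subgroup of even order of `C(A)` normalizes `A`. -/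
theorem le_normalizer_of_even (hA : IsStandardSubgroup A) {Z W : Subgroup G}
    (hZK : Z ≤ centralizer (A : Set G)) (h2 : 2 ∣ Nat.card Z) (hW : ∀ w ∈ W, ∀ z ∈ Z, w * z = z * w) :
    W ≤ normalizer (A : Set G) := by
  obtain ⟨s, hs, hs2⟩ := exists_involution h2
  intro w hw
  exact mem_normalizer_of_comm hA (hZK hs) hs2 (hW w hw s hs)

/-- The center of a subgroup, as a subgroup of the group. -/
def centerIn (J : Subgroup G) : Subgroup G := (center ↥J).map J.subtype

theorem centerIn_comm {J : Subgroup G} {z y : G} (hz : z ∈ centerIn J) (hy : y ∈ J) : y * z = z * y := by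
  obtain ⟨z', hz', rfl⟩ := hz
  exact congrArg Subtype.val (mem_center_iff.mp hz' ⟨y, hy⟩)

theorem centerIn_le {J : Subgroup G} : centerIn J ≤ J := by
  rintro _ ⟨z', -, rfl⟩
  exact z'.2

theorem centerIn_subnormal {J : Subgroup G} (hJ : J.IsSubnormal) : (centerIn J).IsSubnormal := by
  exact IsSubnormal.trans' (H := center ↥J) (inferInstance : (center ↥J).Normal).isSubnormal hJ

/-- With `O(G) = 1`, a component with odd center has trivial center. -/
theorem center_eq_bot_of_odd (hO : oddCore G = ⊥) {J : Subgroup G} (hJ : IsComponent J)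
    (h : ¬ 2 ∣ Nat.card (centerIn J)) : center ↥J = ⊥ := by
  have h1 : centerIn J ≤ oddCore G :=
    le_pPrimeCore_of_isSubnormal (centerIn_subnormal hJ.1)
      ((Nat.Prime.coprime_iff_not_dvd Nat.prime_two).2 h).symm
  rw [hO, le_bot_iff] at h1
  rw [eq_bot_iff]
  intro x hx
  have : (x : G) ∈ centerIn J := ⟨x, hx, rfl⟩
  rw [h1, mem_bot] at this
  rw [mem_bot]
  exact Subtype.ext this

theorem isSimpleGroup_of_center_eq_bot {Q : Type*} [Group Q] (hQ : IsQuasisimple Q) (h : center Q = ⊥) :
    IsSimpleGroup Q := by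
  haveI := quasisimple_nontrivial hQ
  refine ⟨?_⟩
  intro N hN
  rcases normal_eq_top_or_le_center hQ N with h1 | h1
  · exact Or.inr h1
  · rw [h, le_bot_iff] at h1
    exact Or.inl h1

theorem not_comm_of_quasisimple {Q : Type*} [Group Q] (hQ : IsQuasisimple Q) : ¬ IsMulCommutative Q := by
  intro hc
  apply quasisimple_center_ne_top hQ
  rw [eq_top_iff]
  intro x _
  rw [mem_center_iff]
  intro y
  exact hc.is_comm.comm y x

/-- `A` is normal if it is a component. -/
theorem normal_of_component (hA : IsStandardSubgroup A) (hc : IsComponent A) : A.Normal := by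
  have hconj : ∀ g : G, A.map (MulAut.conj g).toMonoidHom = A := by
    intro g
    by_contra hne
    rcases component_eq_or_commutator_eq_bot hc (isComponent_conj g hc) with h | h
    · exact hne h.symm
    · exact hA.2.2.1 g hne h
  constructor
  intro n hn g
  rw [← hconj g]
  exact ⟨n, hn, rfl⟩

/-- First case: `A < J`, `J` a component of `G`. -/
theorem case_le (ft : FT G) (hA : IsStandardSubgroup A) (hO : oddCore G = ⊥) {J : Subgroup G}
    (hJ : IsComponent J) (hAJ : A ≤ J) (hne : A ≠ J) :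
    layer G = J ∧ IsSimpleGroup ↥J ∧ ¬ IsMulCommutative ↥J := by
  have hq : IsQuasisimple A := hA.1
  -- `J` does not normalize `A`
  have hN : ¬ J ≤ normalizer (A : Set G) := by
    intro h
    have hn : (A.subgroupOf J).Normal := by
      constructor
      intro n hn g
      rw [mem_subgroupOf] at hn ⊢
      exact (mem_normalizer_iff.mp (h g.2) n).mp hn
    rcases normal_eq_top_or_le_center hJ.2 (A.subgroupOf J) with h1 | h1
    · exact hne (le_antisymm hAJ (subgroupOf_eq_top.mp h1))
    · apply ne_bot_of_quasisimple hq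
      rw [← commutator_self_of_quasisimple hq, eq_bot_iff, commutator_le]
      intro a ha b hb
      have ha' : (⟨a, hAJ ha⟩ : J) ∈ center J := h1 (by rw [mem_subgroupOf]; exact ha)
      have := mem_center_iff.mp ha' ⟨b, hAJ hb⟩
      have h' : b * a = a * b := congrArg Subtype.val this
      rw [mem_bot, commutatorElement_eq_one_iff_commute]
      exact h'.symm
  have hlay : layer G = J := by
    apply le_antisymm _ (le_layer_of_isComponent hJ)
    rw [layer]
    apply sSup_le
    intro D hD
    rcases component_eq_or_commutator_eq_bot hD hJ with h | h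
    · exact h.le
    · exfalso
      apply hN
      have hcomm : ∀ d ∈ D, ∀ j ∈ J, d * j = j * d := by
        intro d hd j hj
        have h1 := Subgroup.commutator_mem_commutator hd hj
        rw [h, mem_bot, commutatorElement_eq_one_iff_mul_comm] at h1
        exact h1
      apply le_normalizer_of_even hA (Z := D) _ (two_dvd_card_of_quasisimple ft hD.2)
      · intro w hw z hz
        exact (hcomm z hz w hw).symm
      · intro d hd
        rw [mem_centralizer_iff]
        intro a ha
        exact (hcomm d hd a (hAJ ha)).symm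
  have hodd : ¬ 2 ∣ Nat.card (centerIn J) := by
    intro h2
    apply hN
    apply le_normalizer_of_even hA (Z := centerIn J) _ h2
    · intro w hw z hz
      exact centerIn_comm hz hw
    · intro z hz
      rw [mem_centralizer_iff]
      intro a ha
      exact centerIn_comm hz (hAJ ha)
  exact ⟨hlay, isSimpleGroup_of_center_eq_bot hJ.2 (center_eq_bot_of_odd hO hJ hodd),
    not_comm_of_quasisimple hJ.2⟩


theorem map_conj_mul (a b : G) (H : Subgroup G) :
    H.map (MulAut.conj (a * b)).toMonoidHom =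
      (H.map (MulAut.conj b).toMonoidHom).map (MulAut.conj a).toMonoidHom := by
  rw [Subgroup.map_map]
  congr 1
  ext x
  simp [MulAut.conj_apply, mul_assoc]

theorem map_conj_one (H : Subgroup G) : H.map (MulAut.conj (1 : G)).toMonoidHom = H := by
  ext x
  simp [MulAut.conj_apply]

/-- Second case: `A` is the diagonal of `J × J^t`. -/
theorem case_diag (ft : FT G) (hA : IsStandardSubgroup A) (hO : oddCore G = ⊥) {t : G}
    (ht2 : t * t = 1) (htA : t ∈ centralizer (A : Set G))
    {J : Subgroup G} (hJ : IsComponent J) (hne : J.map (MulAut.conj t).toMonoidHom ≠ J)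
    (hnc : ¬ ∀ k ∈ A, ∀ j ∈ J, k * j = j * k)
    (hmem : ∀ k, k ∈ A ↔ ∃ j ∈ J, k = j * (t * j * t⁻¹)) :
    ∃ X : Subgroup G, IsSimpleGroup ↥X ∧ ¬ IsMulCommutative ↥X ∧ Nonempty (↥X ≃* ↥A) ∧
      (∀ a ∈ X, ∀ b ∈ X.map (MulAut.conj t).toMonoidHom, a * b = b * a) ∧
      X ⊓ X.map (MulAut.conj t).toMonoidHom = ⊥ ∧
      X ⊔ X.map (MulAut.conj t).toMonoidHom = layer G ∧
      centralizer (A : Set G) = zpowers t := by
  have hti : t⁻¹ = t := inv_eq_of_mul_eq_one_left ht2
  have hJtc : IsComponent (J.map (MulAut.conj t).toMonoidHom) := isComponent_conj t hJ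
  obtain ⟨Jt, hJt⟩ : ∃ Jt, Jt = J.map (MulAut.conj t).toMonoidHom := ⟨_, rfl⟩
  rw [← hJt] at hJtc hne
  have hmemt : ∀ j ∈ J, t * j * t⁻¹ ∈ Jt := by
    intro j hj
    rw [hJt]
    exact ⟨j, hj, rfl⟩
  have hmemt' : ∀ x ∈ Jt, ∃ j ∈ J, t * j * t⁻¹ = x := by
    intro x hx
    rw [hJt] at hx
    obtain ⟨j, hj, rfl⟩ := hx
    exact ⟨j, hj, rfl⟩
  have hDD : ⁅J, Jt⁆ = ⊥ := by
    rcases component_eq_or_commutator_eq_bot hJ hJtc with h | h
    · exact (hne h.symm).elim
    · exact h
  have hcomm : ∀ a ∈ J, ∀ b ∈ Jt, a * b = b * a := by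
    intro a ha b hb
    have h1 := Subgroup.commutator_mem_commutator ha hb
    rw [hDD, mem_bot, commutatorElement_eq_one_iff_mul_comm] at h1
    exact h1
  -- commuting with `J` and `J^t` means centralizing `A`
  have hcent : ∀ x : G, (∀ j ∈ J, x * j = j * x) → (∀ j ∈ Jt, x * j = j * x) →
      x ∈ centralizer (A : Set G) := by
    intro x h1 h2
    rw [mem_centralizer_iff]
    intro a ha
    obtain ⟨j, hj, rfl⟩ := (hmem a).1 ha
    have e1 := h1 j hj
    have e2 := h2 _ (hmemt j hj)
    calc j * (t * j * t⁻¹) * x = j * ((t * j * t⁻¹) * x) := by group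
      _ = j * (x * (t * j * t⁻¹)) := by rw [e2]
      _ = (j * x) * (t * j * t⁻¹) := by group
      _ = (x * j) * (t * j * t⁻¹) := by rw [e1]
      _ = x * (j * (t * j * t⁻¹)) := by group
  -- `A ∩ J` is central in `J`
  have hAJ : ∀ k ∈ A, k ∈ J → ∀ y ∈ J, k * y = y * k := by
    intro k hk hkJ y hy
    obtain ⟨j, hj, rfl⟩ := (hmem k).1 hk
    have he : t * j * t⁻¹ ∈ J := by
      have e : t * j * t⁻¹ = j⁻¹ * (j * (t * j * t⁻¹)) := by group
      rw [e]
      exact J.mul_mem (J.inv_mem hj) hkJ
    have h1 : (t * j * t⁻¹) * (t * y * t⁻¹) = (t * y * t⁻¹) * (t * j * t⁻¹) :=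
      hcomm _ he _ (hmemt y hy)
    have h2 : j * y = y * j := by
      have e1 : t * (j * y) * t⁻¹ = t * (y * j) * t⁻¹ := by
        calc t * (j * y) * t⁻¹ = (t * j * t⁻¹) * (t * y * t⁻¹) := by group
          _ = (t * y * t⁻¹) * (t * j * t⁻¹) := h1
          _ = t * (y * j) * t⁻¹ := by group
      exact mul_left_cancel (mul_right_cancel e1)
    have h3 : y * (t * j * t⁻¹) = (t * j * t⁻¹) * y := hcomm y hy _ (hmemt j hj)
    calc j * (t * j * t⁻¹) * y = j * ((t * j * t⁻¹) * y) := by group
      _ = j * (y * (t * j * t⁻¹)) := by rw [h3]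
      _ = (j * y) * (t * j * t⁻¹) := by group
      _ = (y * j) * (t * j * t⁻¹) := by rw [h2]
      _ = y * (j * (t * j * t⁻¹)) := by group
  -- `J` does not normalize `A`
  have hN : ¬ J ≤ normalizer (A : Set G) := by
    intro h
    apply hnc
    have hb : ⁅J, A⁆ = ⊥ := by
      apply commutator_eq_bot_of_perfect (commutator_self_of_quasisimple hJ.2)
      have hleJ : ⁅J, A⁆ ≤ J := by
        rw [commutator_le]
        intro j hj a ha
        obtain ⟨j', hj', rfl⟩ := (hmem a).1 ha
        have h1 : (t * j' * t⁻¹) * j⁻¹ = j⁻¹ * (t * j' * t⁻¹) :=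
          (hcomm j⁻¹ (J.inv_mem hj) _ (hmemt j' hj')).symm
        have e : ⁅j, j' * (t * j' * t⁻¹)⁆ = j * (j' * j⁻¹ * j'⁻¹) := by
          rw [commutatorElement_def]
          calc j * (j' * (t * j' * t⁻¹)) * j⁻¹ * (j' * (t * j' * t⁻¹))⁻¹
              = j * j' * ((t * j' * t⁻¹) * j⁻¹) * (t * j' * t⁻¹)⁻¹ * j'⁻¹ := by group
            _ = j * j' * (j⁻¹ * (t * j' * t⁻¹)) * (t * j' * t⁻¹)⁻¹ * j'⁻¹ := by rw [h1]
            _ = j * (j' * j⁻¹ * j'⁻¹) := by group
        rw [e]
        exact J.mul_mem hj (J.mul_mem (J.mul_mem hj' (J.inv_mem hj)) (J.inv_mem hj'))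
      have hleA : ⁅J, A⁆ ≤ A := by
        rw [commutator_le]
        intro j hj a ha
        have h1 : j * a * j⁻¹ ∈ A := (mem_normalizer_iff.mp (h hj) a).mp ha
        rw [commutatorElement_def]
        exact A.mul_mem h1 (A.inv_mem ha)
      rw [eq_bot_iff, commutator_le]
      intro a ha b hb
      rw [mem_bot, commutatorElement_eq_one_iff_mul_comm]
      exact hAJ a (hleA ha) (hleJ ha) b hb
    intro k hk j hj
    have h1 := Subgroup.commutator_mem_commutator hj hk
    rw [hb, mem_bot, commutatorElement_eq_one_iff_mul_comm] at h1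
    exact h1.symm
  -- the components of `G`
  have hcomps : ∀ D : Subgroup G, IsComponent D → D = J ∨ D = Jt := by
    intro D hD
    by_contra hcon
    push Not at hcon
    apply hN
    have h1 : ∀ d ∈ D, ∀ j ∈ J, d * j = j * d := by
      intro d hd j hj
      rcases component_eq_or_commutator_eq_bot hD hJ with h | h
      · exact (hcon.1 h).elim
      · have h1 := Subgroup.commutator_mem_commutator hd hj
        rw [h, mem_bot, commutatorElement_eq_one_iff_mul_comm] at h1
        exact h1
    have h2 : ∀ d ∈ D, ∀ j ∈ Jt, d * j = j * d := by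
      intro d hd j hj
      rcases component_eq_or_commutator_eq_bot hD hJtc with h | h
      · exact (hcon.2 h).elim
      · have h1 := Subgroup.commutator_mem_commutator hd hj
        rw [h, mem_bot, commutatorElement_eq_one_iff_mul_comm] at h1
        exact h1
    apply le_normalizer_of_even hA (Z := D) _ (two_dvd_card_of_quasisimple ft hD.2)
    · intro w hw z hz
      exact (h1 z hz w hw).symm
    · intro d hd
      exact hcent d (h1 d hd) (h2 d hd)
  -- the center of `J`
  have hodd : ¬ 2 ∣ Nat.card (centerIn J) := by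
    intro h2
    apply hN
    apply le_normalizer_of_even hA (Z := centerIn J) _ h2
    · intro w hw z hz
      exact centerIn_comm hz hw
    · intro z hz
      exact hcent z (fun j hj => (centerIn_comm hz hj).symm) (fun j hj => hcomm z (centerIn_le hz) j hj)
  have hcb : center ↥J = ⊥ := center_eq_bot_of_odd hO hJ hodd
  have hinter : J ⊓ Jt = ⊥ := by
    rw [eq_bot_iff]
    rintro x ⟨hx1, hx2⟩
    have h1 : (⟨x, hx1⟩ : J) ∈ center ↥J := by
      rw [mem_center_iff]
      rintro ⟨y, hy⟩
      exact Subtype.ext (hcomm y hy x hx2)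
    rw [hcb, mem_bot] at h1
    rw [mem_bot]
    exact congrArg Subtype.val h1
  have hlay : J ⊔ Jt = layer G := by
    apply le_antisymm (sup_le (le_layer_of_isComponent hJ) (le_layer_of_isComponent hJtc))
    rw [layer]
    apply sSup_le
    intro D hD
    rcases hcomps D hD with h | h
    · rw [h]; exact le_sup_left
    · rw [h]; exact le_sup_right
  have hAlay : A ≤ layer G := by
    intro a ha
    obtain ⟨j, hj, rfl⟩ := (hmem a).1 ha
    rw [← hlay]
    exact Subgroup.mul_mem _ (mem_sup_left hj) (mem_sup_right (hmemt j hj))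
  -- elements of `C(A)` normalizing `J` are trivial
  have hK1 : ∀ c ∈ centralizer (A : Set G), J.map (MulAut.conj c).toMonoidHom = J → c = 1 := by
    intro c hc hcJ
    have hcJt : Jt.map (MulAut.conj c).toMonoidHom = Jt := by
      rcases hcomps _ (isComponent_conj c hJtc) with h | h
      · exfalso
        apply hne
        exact Subgroup.map_injective (MulAut.conj c).injective (h.trans hcJ.symm)
      · exact h
    have hfix : ∀ j ∈ J, c * j = j * c ∧ c * (t * j * t⁻¹) = (t * j * t⁻¹) * c := by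
      intro j hj
      have hck : c * (j * (t * j * t⁻¹)) = (j * (t * j * t⁻¹)) * c :=
        (mem_centralizer_iff.mp hc _ ((hmem _).2 ⟨j, hj, rfl⟩)).symm
      have hu : c * j * c⁻¹ ∈ J := by
        rw [← hcJ]
        exact ⟨j, hj, rfl⟩
      have hv : c * (t * j * t⁻¹) * c⁻¹ ∈ Jt := by
        rw [← hcJt]
        exact ⟨_, hmemt j hj, rfl⟩
      have huv : (c * j * c⁻¹) * (c * (t * j * t⁻¹) * c⁻¹) = j * (t * j * t⁻¹) := by
        calc (c * j * c⁻¹) * (c * (t * j * t⁻¹) * c⁻¹) = (c * (j * (t * j * t⁻¹))) * c⁻¹ := by group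
          _ = ((j * (t * j * t⁻¹)) * c) * c⁻¹ := by rw [hck]
          _ = j * (t * j * t⁻¹) := by group
      have hx : j⁻¹ * (c * j * c⁻¹) = (t * j * t⁻¹) * (c * (t * j * t⁻¹) * c⁻¹)⁻¹ := by
        calc j⁻¹ * (c * j * c⁻¹)
            = j⁻¹ * ((c * j * c⁻¹) * (c * (t * j * t⁻¹) * c⁻¹)) * (c * (t * j * t⁻¹) * c⁻¹)⁻¹ := by
              group
          _ = j⁻¹ * (j * (t * j * t⁻¹)) * (c * (t * j * t⁻¹) * c⁻¹)⁻¹ := by rw [huv]
          _ = (t * j * t⁻¹) * (c * (t * j * t⁻¹) * c⁻¹)⁻¹ := by group
      have h1 : j⁻¹ * (c * j * c⁻¹) ∈ J ⊓ Jt := by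
        refine ⟨J.mul_mem (J.inv_mem hj) hu, ?_⟩
        rw [hx]
        exact Jt.mul_mem (hmemt j hj) (Jt.inv_mem hv)
      rw [hinter, mem_bot] at h1
      have h2 : c * j * c⁻¹ = j := by
        have := congrArg (fun x => j * x) h1
        simpa using this
      have h3 : c * j = j * c := by
        calc c * j = (c * j * c⁻¹) * c := by group
          _ = j * c := by rw [h2]
      have h4 : c * (t * j * t⁻¹) * c⁻¹ = t * j * t⁻¹ := by
        have := huv
        rw [h2] at this
        exact mul_left_cancel this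
      refine ⟨h3, ?_⟩
      calc c * (t * j * t⁻¹) = (c * (t * j * t⁻¹) * c⁻¹) * c := by group
        _ = (t * j * t⁻¹) * c := by rw [h4]
    have hcl : c ∈ centralizer (layer G : Set G) := by
      rw [mem_centralizer_iff]
      intro y hy
      rw [← hlay, SetLike.mem_coe] at hy
      obtain ⟨y₁, hy₁, y₂, hy₂, rfl⟩ := mem_sup_of_commutator_eq_bot hDD hy
      obtain ⟨j, hj, rfl⟩ := hmemt' y₂ hy₂
      have e1 := (hfix y₁ hy₁).1
      have e2 := (hfix j hj).2
      calc y₁ * (t * j * t⁻¹) * c = y₁ * ((t * j * t⁻¹) * c) := by group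
        _ = y₁ * (c * (t * j * t⁻¹)) := by rw [e2]
        _ = (y₁ * c) * (t * j * t⁻¹) := by group
        _ = (c * y₁) * (t * j * t⁻¹) := by rw [e1]
        _ = c * (y₁ * (t * j * t⁻¹)) := by group
    have hYodd : ¬ 2 ∣ Nat.card (centralizer (layer G : Set G)) := by
      intro h2
      apply hN
      apply le_normalizer_of_even hA (Z := centralizer (layer G : Set G)) _ h2
      · intro w hw z hz
        exact (mem_centralizer_iff.mp hz w (le_layer_of_isComponent hJ hw))
      · intro z hz
        rw [mem_centralizer_iff]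
        intro a ha
        exact mem_centralizer_iff.mp hz a (hAlay ha)
    have hY : centralizer (layer G : Set G) ≤ oddCore G :=
      le_pPrimeCore inferInstance ((Nat.Prime.coprime_iff_not_dvd Nat.prime_two).2 hYodd).symm
    rw [hO] at hY
    simpa using hY hcl
  refine ⟨J, isSimpleGroup_of_center_eq_bot hJ.2 hcb, not_comm_of_quasisimple hJ.2, ?_, ?_, ?_, ?_, ?_⟩
  · -- the isomorphism
    let φ : ↥J →* ↥A := MonoidHom.mk' (fun j => ⟨j * (t * j * t⁻¹), (hmem _).2 ⟨j, j.2, rfl⟩⟩) (by
      rintro ⟨a, ha⟩ ⟨b, hb⟩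
      apply Subtype.ext
      simp only [MulMemClass.mk_mul_mk, Subgroup.coe_mul]
      have h1 : (t * a * t⁻¹) * b = b * (t * a * t⁻¹) := (hcomm b hb _ (hmemt a ha)).symm
      calc a * b * (t * (a * b) * t⁻¹) = a * b * ((t * a * t⁻¹) * (t * b * t⁻¹)) := by group
        _ = a * (b * (t * a * t⁻¹)) * (t * b * t⁻¹) := by group
        _ = a * ((t * a * t⁻¹) * b) * (t * b * t⁻¹) := by rw [h1]
        _ = a * (t * a * t⁻¹) * (b * (t * b * t⁻¹)) := by group)
    refine ⟨MulEquiv.ofBijective φ ⟨?_, ?_⟩⟩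
    · rw [injective_iff_map_eq_one]
      rintro ⟨j, hj⟩ h1
      have h2 : j * (t * j * t⁻¹) = 1 := congrArg Subtype.val h1
      have h3 : j ∈ J ⊓ Jt := by
        refine ⟨hj, ?_⟩
        have e : j = (t * j * t⁻¹)⁻¹ := eq_inv_of_mul_eq_one_left h2
        rw [e]
        exact Jt.inv_mem (hmemt j hj)
      rw [hinter, mem_bot] at h3
      exact Subtype.ext h3
    · rintro ⟨a, ha⟩
      obtain ⟨j, hj, rfl⟩ := (hmem a).1 ha
      exact ⟨⟨j, hj⟩, rfl⟩
  · rw [← hJt]
    exact hcomm
  · rw [← hJt]
    exact hinter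
  · rw [← hJt]
    exact hlay
  · apply le_antisymm
    · intro c hc
      rcases hcomps _ (isComponent_conj c hJ) with h | h
      · rw [hK1 c hc h]
        exact Subgroup.one_mem _
      · have hc' : t⁻¹ * c ∈ centralizer (A : Set G) :=
          Subgroup.mul_mem _ (Subgroup.inv_mem _ htA) hc
        have h1 : J.map (MulAut.conj (t⁻¹ * c)).toMonoidHom = J := by
          rw [map_conj_mul, h, hJt, ← map_conj_mul, inv_mul_cancel, map_conj_one]
        have h2 := hK1 _ hc' h1
        have h3 : c = t := by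
          have := congrArg (fun x => t * x) h2
          simpa using this
        rw [h3]
        exact mem_zpowers t
    · rw [zpowers_le]
      exact htA

/-- The trichotomy for a standard subgroup with an involution in its centralizer. -/
theorem main (ft : FT G) (A : Subgroup G) (hA : IsStandardSubgroup A) (hO : oddCore G = ⊥) (t : G)
    (ht : orderOf t = 2) (htA : t ∈ centralizer (A : Set G)) :
    A.Normal ∨ (∃ X : Subgroup G, IsSimpleGroup ↥X ∧ ¬ IsMulCommutative ↥X ∧ Nonempty (↥X ≃* ↥A) ∧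
      (∀ a ∈ X, ∀ b ∈ X.map (MulAut.conj t).toMonoidHom, a * b = b * a) ∧
      X ⊓ X.map (MulAut.conj t).toMonoidHom = ⊥ ∧
      X ⊔ X.map (MulAut.conj t).toMonoidHom = layer G ∧
      centralizer (A : Set G) = zpowers t) ∨
    (A ≤ layer G ∧ IsSimpleGroup ↥(layer G) ∧ ¬ IsMulCommutative ↥(layer G)) := by
  have ht2 : t * t = 1 := by rw [← pow_two, ← ht]; exact pow_orderOf_eq_one t
  have hq : IsQuasisimple A := hA.1
  have hKa : ∀ k ∈ A, k * t = t * k := fun k hk => mem_centralizer_iff.mp htA k hk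
  have hLt : A ≤ centralizer ({t} : Set G) := by
    intro k hk
    exact mem_centralizer_singleton_iff.2 (hKa k hk)
  -- `A` is normal in `C(t)`
  have hnorm : (A.subgroupOf (centralizer ({t} : Set G))).Normal := by
    constructor
    intro n hn g
    rw [mem_subgroupOf] at hn ⊢
    have hg : (g : G) * t = t * g := mem_centralizer_singleton_iff.1 g.2
    exact (mem_normalizer_iff.mp (mem_normalizer_of_comm hA htA ht hg) n).mp hn
  have hcomp : IsComponent (A.subgroupOf (centralizer ({t} : Set G))) :=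
    ⟨hnorm.isSubnormal, (quasisimple_subgroupOf_iff hLt).2 hq⟩
  have hE : A ≤ layer G := le_layer ft (pLayer_eq_layer ft hO) ht hLt hcomp
  obtain ⟨J, hJ, hnc, halt⟩ := pump ht2 hKa hcomp.1 hq hE
  rcases halt with hAJ | ⟨hne, hmem⟩
  · by_cases hEq : A = J
    · left
      exact normal_of_component hA (hEq ▸ hJ)
    · obtain ⟨h1, h2, h3⟩ := case_le ft hA hO hJ hAJ hEq
      right; right
      refine ⟨hE, ?_, ?_⟩
      · rw [h1]; exact h2
      · rw [h1]; exact h3
  · right; left
    exact case_diag ft hA hO ht2 htA hJ hne hnc hmem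

end Cfsg.Agent.Lib.StdFT.Std
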